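import Cfsg.Agent.OD.Pre
import Cfsg.Agent.H6.Top2
import Cfsg.Agent.H6.C2A.C
set_option autoImplicit false
set_option maxRecDepth 100000
set_option Elab.async false
set_option linter.all false
namespace CfH6.C2A
open CfH6 MulAction
theorem e0_0 : EqsOk nets0 eqs0 2560 12 0 12 :=
  eqsOk_of _ _ _ _ 0 12 _ (by decide) (by decide +kernel)
theorem ok0 : okNets 2560 nets0 = true := by decide +kernel
theorem x1_0 : NxOk nets0 ws1 nets1 7 2560 12 2560 0 12 :=
  nxOk_of _ _ _ _ _ _ _ 0 12 _ (by decide) (by decide +kernel)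
theorem sx1 : sideNx ws1 nets1 8 2560 12 2560 = true := by decide +kernel
theorem x2_0 : NxOk nets1 ws2 nets2 2 2560 12 384 0 12 :=
  nxOk_of _ _ _ _ _ _ _ 0 12 _ (by decide) (by decide +kernel)
theorem sx2 : sideNx ws2 nets2 7 2560 12 384 = true := by decide +kernel
theorem x3_0 : NxOk nets2 ws3 nets3 2 384 9 32 0 9 :=
  nxOk_of _ _ _ _ _ _ _ 0 9 _ (by decide) (by decide +kernel)
theorem sx3 : sideNx ws3 nets3 2 384 9 32 = true := by decide +kernel
theorem x4_0 : NxOk nets3 ws4 nets4 2 32 5 32 0 5 :=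
  nxOk_of _ _ _ _ _ _ _ 0 5 _ (by decide) (by decide +kernel)
theorem sx4 : sideNx ws4 nets4 2 32 5 32 = true := by decide +kernel
theorem x5_0 : NxOk nets4 ws5 nets5 2 32 5 24 0 5 :=
  nxOk_of _ _ _ _ _ _ _ 0 5 _ (by decide) (by decide +kernel)
theorem sx5 : sideNx ws5 nets5 2 32 5 24 = true := by decide +kernel
theorem x6_0 : NxOk nets5 ws6 nets6 2 24 5 10 0 5 :=
  nxOk_of _ _ _ _ _ _ _ 0 5 _ (by decide) (by decide +kernel)
theorem sx6 : sideNx ws6 nets6 2 24 5 10 = true := by decide +kernel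
theorem x7_0 : NxOk nets6 ws7 nets7 1 10 4 10 0 4 :=
  nxOk_of _ _ _ _ _ _ _ 0 4 _ (by decide) (by decide +kernel)
theorem sx7 : sideNx ws7 nets7 2 10 4 10 = true := by decide +kernel
theorem oi1_0 : (Nat.blt 0 7 && Nat.beq (orbN nets1 7 28 (Nat.shiftLeft 1 1)) S1) = true := by decide +kernel
theorem ci1 : (Nat.beq (chkInv nets1 7 S1) 0 && S1.testBit 1) = true := by decide +kernel
theorem oi2_0 : (Nat.blt 0 7 && Nat.beq (orbN nets1 7 21 (Nat.shiftLeft 1 8)) S2) = true := by decide +kernel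
theorem ci2 : (Nat.beq (chkInv nets1 7 S2) 0 && S2.testBit 8) = true := by decide +kernel
theorem cm2 : chkMx 2560 nets0 8 ws1 7 2300 w2 8 J2 lBig = true := by decide +kernel
theorem cm1 : chkMx 2560 nets0 8 ws1 7 2300 w1 1 J1 lBig = true := by decide +kernel
theorem og7 : Nat.ble 2 (popc 4 (orbN nets7 1 1 (Nat.shiftLeft 1 6))) = true := by decide +kernel
theorem og6 : Nat.ble 3 (popc 4 (orbN nets6 2 2 (Nat.shiftLeft 1 5))) = true := by decide +kernel
theorem og5 : Nat.ble 16 (popc 5 (orbN nets5 2 6 (Nat.shiftLeft 1 4))) = true := by decide +kernel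
theorem og4 : Nat.ble 20 (popc 5 (orbN nets4 2 8 (Nat.shiftLeft 1 3))) = true := by decide +kernel
theorem og3 : Nat.ble 21 (popc 5 (orbN nets3 2 8 (Nat.shiftLeft 1 2))) = true := by decide +kernel
theorem og2 : Nat.ble 324 (popc 9 (orbN nets2 2 16 (Nat.shiftLeft 1 1))) = true := by decide +kernel
theorem pw0 : (allLt 8 (wpow [4, 3, 2, 6, 5, 0] (23 ^ 1)) && bs'.all fun b => Nat.blt b 2560 && Nat.beq (chkMap nets0 (wpow [4, 3, 2, 6, 5, 0] (23 ^ 1)) b b) 0) = true := by decide +kernel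
end CfH6.C2A
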